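import Cfsg.Agent.Lib.Geo.UnitaryInSL

/-!
# Surjectivity of the norm for a finite commutative ring with involution

`Y` finite commutative with involution `σ`, with a trace-one element, and `σ` acting non-trivially
on every `σ`-stable residue field: every `σ`-fixed unit is a norm `σ y * y`.
-/

set_option autoImplicit false

namespace Cfsg.Agent.Lib.MatConj.NormSurj

open Cfsg.Agent.Lib.Geo.UnitaryInSL

variable {Y : Type*} [CommRing Y]

/-- Hensel step: a solution modulo `I` gives a solution modulo `I * I`. -/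
theorem sol_sq (σ : Y →+* Y) (hσ : ∀ y, σ (σ y) = y) (c : Y) (hc : c + σ c = 1)
    (x u : Y) (hxu : x * u = 1) (hxσ : σ x = x) (I : Ideal Y) (h : ∃ y, σ y * y - x ∈ I) :
    ∃ y, σ y * y - x ∈ I * I := by
  obtain ⟨y, hy⟩ := h
  have huσ : σ u = u := by
    have h1 : σ x * σ u = 1 := by rw [← map_mul, hxu, map_one]
    rw [hxσ] at h1
    calc σ u = (x * u) * σ u := by rw [hxu, one_mul]
      _ = (x * σ u) * u := by ring
      _ = u := by rw [h1, one_mul]
  set s := σ y * y - x with hs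
  have hsσ : σ s = s := by
    rw [hs, map_sub, map_mul, hσ, hxσ]
    ring
  have h1 : σ y * y = x + s := by rw [hs]; ring
  let t := -(c * u * s)
  let st := -(σ c * u * s)
  have hst : σ t = st := by
    simp only [t, st, map_neg, map_mul, huσ, hsσ]
  have ht : t ∈ I := by
    simp only [t]
    exact I.neg_mem (I.mul_mem_left _ hy)
  have hst' : st ∈ I := by
    simp only [st]
    exact I.neg_mem (I.mul_mem_left _ hy)
  refine ⟨y * (1 + t), ?_⟩
  have h2 : σ (y * (1 + t)) * (y * (1 + t)) - x = -(s * (u * s)) + (x + s) * (st * t) := by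
    rw [map_mul, map_add, map_one, hst]
    simp only [t, st]
    linear_combination ((1 + -(σ c * u * s)) * (1 + -(c * u * s))) * h1 - s * hxu - (x + s) * u * s * hc
  rw [h2]
  refine Ideal.add_mem _ (Ideal.neg_mem_iff _ |>.mpr ?_) ?_
  · exact Ideal.mul_mem_mul hy (I.mul_mem_left _ hy)
  · exact Ideal.mul_mem_left _ _ (Ideal.mul_mem_mul hst' ht)

theorem sol_pow (σ : Y →+* Y) (hσ : ∀ y, σ (σ y) = y) (c : Y) (hc : c + σ c = 1)
    (x u : Y) (hxu : x * u = 1) (hxσ : σ x = x) (I : Ideal Y) (h : ∃ y, σ y * y - x ∈ I) (k : ℕ) :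
    ∃ y, σ y * y - x ∈ I ^ (2 ^ k) := by
  induction k with
  | zero => simpa using h
  | succ k ih =>
    have h2 := sol_sq σ hσ c hc x u hxu hxσ _ ih
    rwa [← pow_two, ← pow_mul, ← pow_succ] at h2

/-- The residue field case. -/
theorem sol_field [Finite Y] (σ : Y →+* Y) (hσ : ∀ y, σ (σ y) = y) (x : Y) (hx : IsUnit x) (hxσ : σ x = x)
    (m : Ideal Y) [hm : m.IsMaximal] (hstab : m.comap σ = m) (hne : ∃ y, σ y - y ∉ m) :
    ∃ w, σ w * w - x ∈ m := by
  classical
  letI : Field (Y ⧸ m) := Ideal.Quotient.field m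
  haveI : Finite (Y ⧸ m) := Finite.of_surjective _ Ideal.Quotient.mk_surjective
  have hle : m ≤ m.comap σ := hstab.ge
  let τ0 : (Y ⧸ m) →+* (Y ⧸ m) := Ideal.quotientMap m σ hle
  have hτ0 : ∀ y, τ0 (Ideal.Quotient.mk m y) = Ideal.Quotient.mk m (σ y) := fun y => Ideal.quotientMap_mk
  have hinv : ∀ a, τ0 (τ0 a) = a := by
    intro a
    obtain ⟨y, rfl⟩ := Ideal.Quotient.mk_surjective a
    rw [hτ0, hτ0, hσ]
  let τ : (Y ⧸ m) ≃+* (Y ⧸ m) := RingEquiv.ofBijective τ0
    ⟨Function.LeftInverse.injective hinv, Function.RightInverse.surjective hinv⟩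
  have hτ : ∀ a, τ a = τ0 a := fun a => rfl
  have hτne : τ ≠ RingEquiv.refl _ := by
    intro h
    obtain ⟨y, hy⟩ := hne
    apply hy
    rw [← Ideal.Quotient.eq]
    have := congrArg (fun f : (Y ⧸ m) ≃+* (Y ⧸ m) => f (Ideal.Quotient.mk m y)) h
    simpa [hτ, hτ0] using this
  have hx0 : Ideal.Quotient.mk m x ≠ 0 := by
    rw [Ne, Ideal.Quotient.eq_zero_iff_mem]
    intro hmem
    exact hm.ne_top (Ideal.eq_top_of_isUnit_mem _ hmem hx)
  obtain ⟨a, ha⟩ := exists_mul_sigma_eq τ hτne (fun a => hinv a) (Ideal.Quotient.mk m x)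
    (by rw [hτ, hτ0, hxσ]) hx0
  obtain ⟨w, rfl⟩ := Ideal.Quotient.mk_surjective a
  refine ⟨w, ?_⟩
  rw [← Ideal.Quotient.eq, map_mul, ← hτ0, ← hτ, mul_comm]
  exact ha

/-- The norm is surjective onto fixed units. -/
theorem exists_norm_eq [Finite Y] (σ : Y →+* Y) (hσ : ∀ y, σ (σ y) = y) (c : Y) (hc : c + σ c = 1)
    (hfield : ∀ m : Ideal Y, m.IsMaximal → m.comap σ = m → ∃ y, σ y - y ∉ m)
    (x : Y) (hx : IsUnit x) (hxσ : σ x = x) : ∃ y, σ y * y = x := by
  classical
  -- `σ` is bijective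
  have hsurj : Function.Surjective σ := fun y => ⟨σ y, hσ y⟩
  have hmem : ∀ (m : Ideal Y) (z : Y), z ∈ m.comap σ ↔ σ z ∈ m := fun m z => Ideal.mem_comap
  -- the involution on the maximal spectrum
  let d : MaximalSpectrum Y → MaximalSpectrum Y := fun m =>
    ⟨m.asIdeal.comap σ, Ideal.comap_isMaximal_of_surjective σ hsurj⟩
  have hdd : ∀ m, d (d m) = m := by
    intro m
    apply MaximalSpectrum.ext
    ext z
    show σ (σ z) ∈ m.asIdeal ↔ z ∈ m.asIdeal
    rw [hσ]
  obtain ⟨k, ⟨e⟩⟩ := Finite.exists_equiv_fin (MaximalSpectrum Y)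
  let r : MaximalSpectrum Y → ℕ := fun m => (e m).val
  have hr : Function.Injective r := fun a b h => e.injective (Fin.ext h)
  -- the local solutions
  have hloc : ∀ m : MaximalSpectrum Y, ∃ w : Y, d m = m → σ w * w - x ∈ m.asIdeal := by
    intro m
    by_cases hm : d m = m
    · have hstab : m.asIdeal.comap σ = m.asIdeal := congrArg MaximalSpectrum.asIdeal hm
      obtain ⟨w, hw⟩ := sol_field σ hσ x hx hxσ m.asIdeal hstab (hfield _ m.isMaximal hstab)
      exact ⟨w, fun _ => hw⟩
    · exact ⟨0, fun h => absurd h hm⟩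
  choose w0 hw0 using hloc
  let w : MaximalSpectrum Y → Y := fun m => if d m = m then w0 m else if r m < r (d m) then x else 1
  have hw : ∀ m : MaximalSpectrum Y, σ (w (d m)) * w m - x ∈ m.asIdeal := by
    intro m
    by_cases hm : d m = m
    · have h1 : w m = w0 m := if_pos hm
      rw [hm, h1]
      exact hw0 m hm
    · have hne : r m ≠ r (d m) := fun h => hm (hr h).symm
      have hm' : d (d m) ≠ d m := by
        rw [hdd]
        exact fun h => hm h.symm
      rcases lt_or_gt_of_ne hne with h | h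
      · have h1 : w m = x := by
          simp only [w, if_neg hm, if_pos h]
        have h2 : w (d m) = 1 := by
          simp only [w, if_neg hm', hdd, if_neg (not_lt.mpr h.le)]
        rw [h1, h2, map_one, one_mul, sub_self]
        exact Ideal.zero_mem _
      · have h1 : w m = 1 := by
          simp only [w, if_neg hm, if_neg (not_lt.mpr h.le)]
        have h2 : w (d m) = x := by
          simp only [w, if_neg hm', hdd, if_pos h]
        rw [h1, h2, hxσ, mul_one, sub_self]
        exact Ideal.zero_mem _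
  -- the Chinese remainder theorem
  have hcop : Pairwise (Function.onFun IsCoprime (fun m : MaximalSpectrum Y => m.asIdeal)) := by
    intro m n hmn
    exact Ideal.isCoprime_of_isMaximal (fun h => hmn (MaximalSpectrum.ext h))
  haveI : Fintype (MaximalSpectrum Y) := Fintype.ofEquiv _ e.symm
  obtain ⟨a, ha⟩ := Ideal.quotientInfToPiQuotient_surj hcop (fun m => Ideal.Quotient.mk m.asIdeal (w m))
  obtain ⟨y, rfl⟩ := Ideal.Quotient.mk_surjective a
  have hy : ∀ m : MaximalSpectrum Y, y - w m ∈ m.asIdeal := by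
    intro m
    rw [← Ideal.Quotient.eq]
    have := congrFun ha m
    rwa [Ideal.quotientInfToPiQuotient_mk'] at this
  -- the solution modulo the Jacobson radical
  have hJ : ∃ y, σ y * y - x ∈ Ideal.jacobson (⊥ : Ideal Y) := by
    refine ⟨y, ?_⟩
    rw [Ideal.jacobson, Ideal.mem_sInf]
    rintro m ⟨-, hm⟩
    let M : MaximalSpectrum Y := ⟨m, hm⟩
    have h1 : σ (y - w (d M)) ∈ m := (hmem m _).mp (hy (d M))
    have h2 : y - w M ∈ m := hy M
    have h3 : σ (w (d M)) * w M - x ∈ m := hw M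
    have h4 : σ y * y - x = σ (y - w (d M)) * y + σ (w (d M)) * (y - w M) + (σ (w (d M)) * w M - x) := by
      rw [map_sub]
      ring
    rw [h4]
    exact m.add_mem (m.add_mem (m.mul_mem_right _ h1) (m.mul_mem_left _ h2)) h3
  -- nilpotence of the radical
  obtain ⟨N, hN⟩ : IsNilpotent (Ideal.jacobson (⊥ : Ideal Y)) := IsArtinianRing.isNilpotent_jacobson_bot
  obtain ⟨u, hu⟩ := hx.exists_right_inv
  obtain ⟨y, hy⟩ := sol_pow σ hσ c hc x u hu hxσ _ hJ N
  have hle : Ideal.jacobson (⊥ : Ideal Y) ^ (2 ^ N) ≤ Ideal.jacobson (⊥ : Ideal Y) ^ N :=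
    Ideal.pow_le_pow_right Nat.lt_two_pow_self.le
  have h5 := hle hy
  rw [hN, Ideal.zero_eq_bot, Ideal.mem_bot] at h5
  exact ⟨y, sub_eq_zero.mp h5⟩

end Cfsg.Agent.Lib.MatConj.NormSurj
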