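import Mathlib

/-!
# Endomorphisms consisting of one nilpotent Jordan block

`N : V → V` with `N ^ n = 0`, `n = dim V` and `rank N = n - 1`.
-/

set_option autoImplicit false

namespace Cfsg.Agent.Lib.MatConj.RegUnip

open Module

variable {F V : Type*} [Field F] [AddCommGroup V] [Module F V] [FiniteDimensional F V]

theorem finrank_ker_comp_le (A B : V →ₗ[F] V) :
    finrank F (LinearMap.ker (A ∘ₗ B)) ≤ finrank F (LinearMap.ker A) + finrank F (LinearMap.ker B) := by
  let g : LinearMap.ker (A ∘ₗ B) →ₗ[F] LinearMap.ker A :=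
    (B.domRestrict _).codRestrict _ (fun x => by
      have h := x.2
      rw [LinearMap.mem_ker] at h ⊢
      exact h)
  have h1 := LinearMap.finrank_range_add_finrank_ker g
  have h2 : finrank F (LinearMap.range g) ≤ finrank F (LinearMap.ker A) := Submodule.finrank_le _
  have h3 : finrank F (LinearMap.ker g) ≤ finrank F (LinearMap.ker B) := by
    let k : LinearMap.ker g →ₗ[F] LinearMap.ker B :=
      LinearMap.codRestrict _ ((LinearMap.ker (A ∘ₗ B)).subtype ∘ₗ (LinearMap.ker g).subtype) (fun x => by
        have h4 : g x.1 = 0 := x.2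
        have h5 := congrArg Subtype.val h4
        rw [LinearMap.mem_ker]
        exact h5)
    apply LinearMap.finrank_le_finrank_of_injective (f := k)
    intro x y hxy
    have := congrArg Subtype.val hxy
    apply Subtype.ext
    apply Subtype.ext
    simpa [k] using this
  omega

theorem pow_add_comp (N : V →ₗ[F] V) (a b : ℕ) : N ^ (a + b) = (N ^ a) ∘ₗ (N ^ b) := by
  rw [pow_add]; rfl

theorem pow_finrank_eq_zero {W : Type*} [AddCommGroup W] [Module F W] [FiniteDimensional F W]
    (T : W →ₗ[F] W) (m : ℕ) (h : T ^ m = 0) : T ^ (finrank F W) = 0 := by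
  have h1 := Module.End.ker_pow_le_ker_pow_finrank T m
  rw [h, LinearMap.ker_zero, top_le_iff] at h1
  exact LinearMap.ker_eq_top.mp h1

section block

variable {n : ℕ} {N : V →ₗ[F] V}

theorem finrank_ker_le_one (hV : finrank F V = n) (hrank : finrank F (LinearMap.range N) = n - 1) :
    finrank F (LinearMap.ker N) ≤ 1 := by
  have := LinearMap.finrank_range_add_finrank_ker N
  omega

theorem finrank_ker_pow_le (h1 : finrank F (LinearMap.ker N) ≤ 1) (k : ℕ) :
    finrank F (LinearMap.ker (N ^ k)) ≤ k := by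
  induction k with
  | zero =>
    have : LinearMap.ker (N ^ 0) = ⊥ := by
      rw [pow_zero]
      exact LinearMap.ker_id
    rw [this]; simp
  | succ k ih =>
    have h2 : N ^ (k + 1) = N ∘ₗ (N ^ k) := by
      rw [add_comm, pow_add_comp, pow_one]
    rw [h2]
    have := finrank_ker_comp_le N (N ^ k)
    omega

theorem finrank_ker_pow (hV : finrank F V = n) (hnil : N ^ n = 0)
    (hrank : finrank F (LinearMap.range N) = n - 1) {k : ℕ} (hk : k ≤ n) :
    finrank F (LinearMap.ker (N ^ k)) = k := by
  have h1 := finrank_ker_le_one hV hrank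
  have h2 := finrank_ker_pow_le h1 k
  have h3 := finrank_ker_pow_le h1 (n - k)
  have h4 : N ^ n = (N ^ (n - k)) ∘ₗ (N ^ k) := by
    rw [← pow_add_comp]
    congr 1
    omega
  have h5 := finrank_ker_comp_le (N ^ (n - k)) (N ^ k)
  rw [← h4, hnil, LinearMap.ker_zero, finrank_top, hV] at h5
  omega

/-- A subspace invariant under `N` is the kernel of a power of `N`. -/
theorem eq_ker_of_invariant (hV : finrank F V = n) (hnil : N ^ n = 0)
    (hrank : finrank F (LinearMap.range N) = n - 1) (W : Submodule F V) (hW : ∀ v ∈ W, N v ∈ W) :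
    W = LinearMap.ker (N ^ finrank F W) := by
  have hd : finrank F W ≤ n := by
    rw [← hV]; exact Submodule.finrank_le W
  apply Submodule.eq_of_le_of_finrank_eq
  · intro v hv
    have h1 : (N.restrict hW) ^ n = 0 := by
      rw [Module.End.pow_restrict]
      ext x
      simp [hnil]
    have h2 := pow_finrank_eq_zero _ n h1
    rw [Module.End.pow_restrict] at h2
    have h3 := congrArg (fun T => ((T ⟨v, hv⟩ : W) : V)) h2
    simpa using h3
  · rw [finrank_ker_pow hV hnil hrank hd]

theorem range_eq_ker (hV : finrank F V = n) (hnil : N ^ n = 0)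
    (hrank : finrank F (LinearMap.range N) = n - 1) (hn : 1 ≤ n) :
    LinearMap.range N = LinearMap.ker (N ^ (n - 1)) := by
  apply Submodule.eq_of_le_of_finrank_eq
  · rintro _ ⟨x, rfl⟩
    rw [LinearMap.mem_ker]
    have : N ^ n = (N ^ (n - 1)) ∘ₗ (N ^ 1) := by
      rw [← pow_add_comp]
      congr 1
      omega
    have h2 := congrArg (fun T => T x) this
    simp only [hnil, LinearMap.zero_apply, pow_one, LinearMap.comp_apply] at h2
    exact h2.symm
  · rw [finrank_ker_pow hV hnil hrank (by omega), hrank]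

theorem exists_cyclic (hV : finrank F V = n) (hnil : N ^ n = 0)
    (hrank : finrank F (LinearMap.range N) = n - 1) (hn : 1 ≤ n) :
    ∃ w : V, (N ^ (n - 1)) w ≠ 0 := by
  by_contra hcon
  push Not at hcon
  have h1 : N ^ (n - 1) = 0 := by
    ext x
    exact hcon x
  have h2 := finrank_ker_pow hV hnil hrank (k := n - 1) (by omega)
  rw [h1, LinearMap.ker_zero, finrank_top, hV] at h2
  omega

theorem linearIndependent_pow (hnil : N ^ n = 0) {w : V} (hw : (N ^ (n - 1)) w ≠ 0) :
    LinearIndependent F (fun i : Fin n => (N ^ (i : ℕ)) w) := by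
  classical
  rw [Fintype.linearIndependent_iff]
  intro g hg
  by_contra hcon
  push Not at hcon
  -- take the least index with nonzero coefficient
  obtain ⟨i₀, hi₀⟩ := hcon
  let S : Finset (Fin n) := Finset.univ.filter (fun i => g i ≠ 0)
  have hS : S.Nonempty := ⟨i₀, by simp [S, hi₀]⟩
  let i := S.min' hS
  have hi : g i ≠ 0 := (Finset.mem_filter.mp (S.min'_mem hS)).2
  have hmin : ∀ j : Fin n, j < i → g j = 0 := by
    intro j hj
    by_contra hne
    have : j ∈ S := by simp [S, hne]
    exact absurd (S.min'_le j this) (not_le.mpr hj)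
  have hin : (i : ℕ) < n := i.2
  have h1 := congrArg (N ^ (n - 1 - (i : ℕ))) hg
  rw [map_zero, map_sum, Finset.sum_eq_single i] at h1
  · rw [map_smul, ← LinearMap.comp_apply, ← pow_add_comp] at h1
    have h2 : n - 1 - (i : ℕ) + (i : ℕ) = n - 1 := by omega
    rw [h2] at h1
    exact hw ((smul_eq_zero.mp h1).resolve_left hi)
  · intro j _ hj
    rw [map_smul, ← LinearMap.comp_apply, ← pow_add_comp]
    rcases lt_or_gt_of_ne hj with hlt | hgt
    · rw [hmin j hlt, zero_smul]
    · have h3 : n - 1 - (i : ℕ) + (j : ℕ) = n + ((j : ℕ) - (i : ℕ) - 1) := by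
        have : (i : ℕ) < (j : ℕ) := hgt
        have : (j : ℕ) < n := j.2
        omega
      rw [h3, add_comm, pow_add_comp, hnil]
      simp
  · intro h
    exact absurd (Finset.mem_univ _) h

/-- The cyclic basis `w, N w, …, N^(n-1) w`. -/
noncomputable def cyclicBasis (hV : finrank F V = n) (hnil : N ^ n = 0) {w : V} (hw : (N ^ (n - 1)) w ≠ 0) :
    Basis (Fin n) F V :=
  basisOfLinearIndependentOfCardEqFinrank' (fun i : Fin n => (N ^ (i : ℕ)) w)
    (linearIndependent_pow hnil hw) (by simpa using hV.symm)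

@[simp] theorem cyclicBasis_apply (hV : finrank F V = n) (hnil : N ^ n = 0) {w : V} (hw : (N ^ (n - 1)) w ≠ 0)
    (i : Fin n) : cyclicBasis hV hnil hw i = (N ^ (i : ℕ)) w := by
  simp [cyclicBasis]

end block

theorem mulVecLin_pow {ι : Type*} [Fintype ι] [DecidableEq ι] (A : Matrix ι ι F) (k : ℕ) :
    (A ^ k).mulVecLin = (A.mulVecLin) ^ k := by
  induction k with
  | zero => simp only [pow_zero, Matrix.mulVecLin_one]; rfl
  | succ k ih =>
    rw [pow_succ, Matrix.mulVecLin_mul, ih, pow_succ]
    rfl

end Cfsg.Agent.Lib.MatConj.RegUnip
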